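import Mathlib
import Cfsg.Prelude.Def_ChevStructure
import Cfsg.Prelude.Def_ChevG2
import Cfsg.Prelude.Def_ChevB2
import Cfsg.Prelude.Def_ChevD4
import Cfsg.Prelude.Def_ChevF4
import Cfsg.Prelude.Def_ChevE6
import Cfsg.Prelude.Def_ChevE7
import Cfsg.Prelude.Def_ChevE8
import Cfsg.Agent.Eq.Def_Chevalley
import Cfsg.Agent.Eq.Def_ChevWords
import Cfsg.Agent.Eq.Def_ChevStructure

/-!
Positive root elements are unitriangular when the basis is ordered negative roots, coroots, positive roots.
-/

set_option autoImplicit false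

namespace CfsgLib.ChevUnipotent

open Cfsg.Lie Cfsg.Lie.ChevalleyDatum

section raise

variable {ι F : Type*} [Fintype ι] [Field F] (φ : ι → ℕ)

/-- All entries linking a column to a row fewer than `k` levels higher vanish. -/
def Raises (k : ℕ) (A : Matrix ι ι F) : Prop := ∀ i j, φ i < φ j + k → A i j = 0

variable {φ}

theorem Raises.add {k : ℕ} {A B : Matrix ι ι F} (hA : Raises φ k A) (hB : Raises φ k B) :
    Raises φ k (A + B) := fun i j h => by simp [hA i j h, hB i j h]

theorem Raises.neg {k : ℕ} {A : Matrix ι ι F} (hA : Raises φ k A) : Raises φ k (-A) := fun i j h => by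
  simp [hA i j h]

theorem Raises.sub {k : ℕ} {A B : Matrix ι ι F} (hA : Raises φ k A) (hB : Raises φ k B) :
    Raises φ k (A - B) := fun i j h => by simp [hA i j h, hB i j h]

theorem Raises.mono {k l : ℕ} {A : Matrix ι ι F} (hA : Raises φ k A) (h : l ≤ k) : Raises φ l A :=
  fun i j hij => hA i j (by omega)

theorem Raises.mul {k l : ℕ} {A B : Matrix ι ι F} (hA : Raises φ k A) (hB : Raises φ l B) :
    Raises φ (k + l) (A * B) := fun i j h => by
  rw [Matrix.mul_apply]
  refine Finset.sum_eq_zero fun m _ => ?_
  by_cases hm : φ i < φ m + k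
  · rw [hA i m hm, zero_mul]
  · rw [hB m j (by omega), mul_zero]

theorem Raises.zero (k : ℕ) : Raises φ k (0 : Matrix ι ι F) := fun _ _ _ => rfl

variable [DecidableEq ι]

theorem Raises.one : Raises φ 0 (1 : Matrix ι ι F) := fun i j h => by
  rw [Matrix.one_apply_ne]
  rintro rfl
  omega

theorem Raises.one_add {k : ℕ} {A : Matrix ι ι F} (hA : Raises φ k A) : Raises φ 0 (1 + A) :=
  Raises.one.add (hA.mono (Nat.zero_le k))

theorem Raises.pow {A : Matrix ι ι F} (hA : Raises φ 1 A) : ∀ k, Raises φ k (A ^ k)
  | 0 => by rw [pow_zero]; exact Raises.one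
  | k + 1 => by rw [pow_succ]; exact (Raises.pow hA k).mul hA

theorem eq_zero_of_raises {k : ℕ} {A : Matrix ι ι F} (hA : Raises φ k A) (hk : ∀ i, φ i < k) : A = 0 := by
  ext i j
  exact hA i j (by have := hk i; omega)

theorem raises_inv {A h : Matrix ι ι F} {k : ℕ} (hk : 1 ≤ k) (hA : Raises φ k A) (hh : h = -A - A * h) :
    Raises φ k h := by
  intro i j
  induction hn : φ i using Nat.strong_induction_on generalizing i with
  | _ n ih =>
    subst hn
    intro hij
    rw [hh, Matrix.sub_apply, Matrix.neg_apply, hA i j hij, neg_zero, zero_sub, Matrix.mul_apply, neg_eq_zero]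
    refine Finset.sum_eq_zero fun m _ => ?_
    by_cases hm : φ i < φ m + k
    · rw [hA i m hm, zero_mul]
    · rw [ih (φ m) (by omega) m rfl (by omega), mul_zero]

variable (φ) (F)

/-- Invertible matrices which differ from the identity by a matrix raising levels by at least `k + 1`. -/
def levelGroup (k : ℕ) : Subgroup (GL ι F) where
  carrier := {g | Raises φ (k + 1) ((g : Matrix ι ι F) - 1)}
  one_mem' := by
    show Raises φ _ _
    rw [Units.val_one, sub_self]
    exact Raises.zero _
  mul_mem' := by
    intro a b ha hb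
    show Raises φ _ _
    have h : ((a * b : GL ι F) : Matrix ι ι F) - 1 =
        ((a : Matrix ι ι F) - 1) * ((b : Matrix ι ι F) - 1) + ((a : Matrix ι ι F) - 1) + ((b : Matrix ι ι F) - 1) := by
      rw [Units.val_mul]; noncomm_ring
    rw [h]
    exact (((Raises.mul ha hb).mono (by omega)).add ha).add hb
  inv_mem' := by
    intro a ha
    refine raises_inv (φ := φ) (A := (a : Matrix ι ι F) - 1) (by omega) ha ?_
    have h : (a : Matrix ι ι F) * ((a⁻¹ : GL ι F) : Matrix ι ι F) = 1 := a.mul_inv
    rw [sub_mul, mul_sub, h, one_mul, mul_one]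
    abel

theorem mem_levelGroup {k : ℕ} {g : GL ι F} :
    g ∈ levelGroup F φ k ↔ Raises φ (k + 1) ((g : Matrix ι ι F) - 1) := Iff.rfl

variable {φ} {F}

theorem commutator_mem_levelGroup {a b : ℕ} {g h : GL ι F} (hg : g ∈ levelGroup F φ a)
    (hh : h ∈ levelGroup F φ b) : g * h * g⁻¹ * h⁻¹ ∈ levelGroup F φ (a + b + 1) := by
  rw [mem_levelGroup] at hg hh ⊢
  set A := (g : Matrix ι ι F) - 1 with hA
  set B := (h : Matrix ι ι F) - 1 with hB
  have h1 : ((h * g : GL ι F) : Matrix ι ι F) * ((g⁻¹ * h⁻¹ : GL ι F) : Matrix ι ι F) = 1 := by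
    rw [← Units.val_mul, show h * g * (g⁻¹ * h⁻¹) = 1 by group, Units.val_one]
  have h2 : ((g * h * g⁻¹ * h⁻¹ : GL ι F) : Matrix ι ι F) - 1 =
      (A * B - B * A) * ((g⁻¹ * h⁻¹ : GL ι F) : Matrix ι ι F) := by
    conv_lhs => rw [← h1]
    rw [Units.val_mul (h : GL ι F) g, hA, hB, mul_assoc (g * h), Units.val_mul (g * h)]
    rw [← sub_mul, Units.val_mul g h]
    congr 1
    noncomm_ring
  rw [h2]
  have h3 : Raises φ 0 ((g⁻¹ * h⁻¹ : GL ι F) : Matrix ι ι F) := by
    have := Raises.one_add ((mem_levelGroup F φ).1 ((levelGroup F φ 0).mul_mem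
      ((levelGroup F φ 0).inv_mem (hg.mono (by omega) : g ∈ levelGroup F φ 0))
      ((levelGroup F φ 0).inv_mem (hh.mono (by omega) : h ∈ levelGroup F φ 0))))
    simpa using this
  refine (((hg.mul hh).sub ((hh.mul hg).mono (by omega))).mul h3).mono (by omega)

theorem isNilpotent_levelGroup_zero (n : ℕ) (hn : ∀ i, φ i < n) : Group.IsNilpotent (levelGroup F φ 0) := by
  rw [Subgroup.nilpotent_iff_finite_descending_central_series]
  refine ⟨n, fun k => (levelGroup F φ k).subgroupOf (levelGroup F φ 0), ⟨?_, ?_⟩, ?_⟩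
  · exact Subgroup.subgroupOf_self _
  · intro x k hx g
    have h := commutator_mem_levelGroup hx g.2
    simpa [Subgroup.mem_subgroupOf, commutatorElement_def] using h
  · rw [eq_bot_iff]
    intro x hx
    rw [Subgroup.mem_bot]
    apply Subtype.ext
    apply Units.ext
    have h : ((x : GL ι F) : Matrix ι ι F) - 1 = 0 :=
      eq_zero_of_raises ((mem_levelGroup F φ).1 hx) fun i => (hn i).trans (Nat.lt_succ_self n)
    exact sub_eq_zero.1 h

end raise

/-- Negative roots, then coroots, then positive roots. -/
def level (D : ChevalleyDatum) : D.Idx → ℕ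
  | .inl i => D.nroots / 2 + i
  | .inr u => if (u : ℕ) < D.nroots / 2 then u else u + D.rank

theorem level_lt (D : ChevalleyDatum) (i : D.Idx) : level D i < D.rank + D.nroots := by
  rcases i with i | u
  · have := i.2; simp only [level]; omega
  · have := u.2; simp only [level]; split_ifs <;> omega

/-- The table facts needed: positive roots are the upper half, their negatives the lower half, and
every chain of a positive root strictly increases the index. -/
def TableIncreasing (D : ChevalleyDatum) : Prop :=
  ∀ r < D.nroots, D.IsPosRoot r → D.nroots / 2 ≤ r ∧ D.negIdx.getD r 0 < D.nroots / 2 ∧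
    ∀ e ∈ (D.chain.getD r #[]).toList, ∀ q ∈ e.2.toList, e.1 < q.1

instance instDecidableTableIncreasing (D : ChevalleyDatum) : Decidable (TableIncreasing D) := by
  unfold TableIncreasing; infer_instance

theorem tableIncreasing_G2 : TableIncreasing chevG2 := by decide +kernel
theorem tableIncreasing_B2 : TableIncreasing chevB2 := by decide +kernel
theorem tableIncreasing_D4 : TableIncreasing chevD4 := by decide +kernel
theorem tableIncreasing_F4 : TableIncreasing chevF4 := by decide +kernel
theorem tableIncreasing_E6 : TableIncreasing chevE6 := by decide +kernel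
theorem tableIncreasing_E7 : TableIncreasing chevE7 := by decide +kernel
theorem tableIncreasing_E8 : TableIncreasing chevE8 := by decide +kernel

theorem tableIncreasing_of_mem {D : ChevalleyDatum}
    (hD : D ∈ [chevG2, chevB2, chevD4, chevF4, chevE6, chevE7, chevE8]) : TableIncreasing D := by
  fin_cases hD
  exacts [tableIncreasing_G2, tableIncreasing_B2, tableIncreasing_D4, tableIncreasing_F4,
    tableIncreasing_E6, tableIncreasing_E7, tableIncreasing_E8]

theorem chainCoeff_eq_nil {D : ChevalleyDatum} (hT : TableIncreasing D) {r s u : ℕ} (hr : r < D.nroots)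
    (hpos : D.IsPosRoot r) (hus : u ≤ s) : D.chainCoeff r s u = [] := by
  rw [List.eq_nil_iff_forall_not_mem]
  intro km hkm
  simp only [ChevalleyDatum.chainCoeff, List.mem_flatMap, List.mem_map, List.mem_filter, decide_eq_true_eq] at hkm
  obtain ⟨e, ⟨he, hes⟩, q, ⟨hq, hqu⟩, _⟩ := hkm
  have := (hT r hr hpos).2.2 e he q.1 (List.fst_mem_of_mem_zipIdx hq)
  omega

theorem raises_x_sub_one {F : Type*} [Field F] {D : ChevalleyDatum} (hT : TableIncreasing D) {r : ℕ}
    (hpos : D.IsPosRoot r) (t : F) : Raises (level D) 1 (D.x F r t - 1) := by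
  have hr : r < D.nroots := hpos.1
  obtain ⟨hr2, hneg, -⟩ := hT r hr hpos
  intro row col h
  rw [Matrix.sub_apply, sub_eq_zero, ChevalleyDatum.x, dif_pos hr]
  rcases col with i | s <;> rcases row with i' | u
  · simp [ChevalleyDatum.xMat, Matrix.one_apply]
  · have hi := i.2
    have hu : (u : ℕ) ≠ r := by
      intro e
      simp only [level, e, if_neg (not_lt.2 hr2)] at h
      omega
    simp [ChevalleyDatum.xMat, Fin.ext_iff, hu]
  · have hi := i'.2
    have hs : (s : ℕ) ≠ D.negIdx.getD r 0 := by
      intro e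
      simp only [level, e, if_pos hneg] at h
      omega
    simp only [ChevalleyDatum.xMat, Matrix.of_apply, if_neg hs]
    split_ifs <;> simp
  · simp only [ChevalleyDatum.xMat, Matrix.of_apply, Matrix.one_apply, Sum.inr.injEq]
    by_cases hsr : (s : ℕ) = r
    · rw [if_pos (show s = (⟨r, hr⟩ : Fin D.nroots) from Fin.ext hsr)]
      by_cases hus : u = s
      · subst hus; simp [Fin.ext_iff, hsr]
      · have hur : (u : ℕ) ≠ r := fun e => hus (Fin.ext (e.trans hsr.symm))
        simp [Fin.ext_iff, hur, Fin.val_ne_of_ne hus]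
    · rw [if_neg (fun e => hsr (by rw [e]))]
      by_cases hsn : (s : ℕ) = D.negIdx.getD r 0
      · rw [if_pos hsn]
        by_cases hus : u = s
        · simp [hus]
        · rw [if_neg hus, if_neg hus, if_neg]
          intro e
          have e' : (u : ℕ) = r := congrArg Fin.val e
          simp only [level, e', if_neg (not_lt.2 hr2), hsn, if_pos hneg] at h
          omega
      · rw [if_neg hsn]
        have hle : (u : ℕ) ≤ s := by
          simp only [level] at h
          split_ifs at h <;> omega
        rw [chainCoeff_eq_nil hT hr hpos hle]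
        simp

theorem posUnipotent_le_levelGroup {F : Type*} [Field F] {D : ChevalleyDatum} (hT : TableIncreasing D) :
    D.posUnipotent F ≤ levelGroup F (level D) 0 := by
  rw [ChevalleyDatum.posUnipotent, Subgroup.closure_le]
  rintro g ⟨r, t, hpos, hg⟩
  rw [SetLike.mem_coe, mem_levelGroup, hg]
  exact raises_x_sub_one hT hpos t

end CfsgLib.ChevUnipotent
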